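import Cfsg.Agent.PG.Rank2

/-! Absolute form of the common conclusion of BG 4.18 and 5.6. -/

set_option autoImplicit false

namespace Cfsg.Agent.PG

open Subgroup Cfsg.Agent.GT

universe u

theorem abs_p_structure {G : Type u} [Group G] [Finite G] {p : ℕ} (hp : p.Prime) (hp2 : p ≠ 2)
    (ho : Odd (Nat.card G))
    (h1 : ⁅(⊤ : Subgroup G), (⊤ : Subgroup G)⁆ ≤ piCore2Of {p}ᶜ {p} (⊤ : Subgroup G))
    (h2 : ∀ q, q.Prime → q ≠ p → q ∣ (piCore2Of {p}ᶜ {p} (⊤ : Subgroup G)).relIndex ⊤ →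
      q ∣ p ^ 2 - 1) :
    (∀ q : ℕ, q.Prime → q ∣ (pPrimeCore p G).index → q ≤ p) ∧
      ((p = 3 ∨ ∀ q : ℕ, q.Prime → q ∣ Nat.card G → p ≤ q) → HasNormalPComplement p G) ∧
      HasNormalPComplement p ↥(commutator G) ∧
      (∀ L : Subgroup ↥(commutator G), (Nat.card L).Coprime p →
        L ≤ pPrimeCore p ↥(commutator G)) ∧
      commutator G ≤ pPrimePCore p G ∧ ((pPrimePCore p G).index).Coprime p := by
  have h3 := not_dvd_relIndex_piCore2Of hp h1
  have h4 : IsPiHallOf {p}ᶜ (piCoreOf {p}ᶜ (commutator G)) (commutator G) :=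
    hall_piCoreOf_of_le_piCore2Of h1
  refine ⟨fun q hq hd => le_of_dvd_relIndex_piCoreOf hp hp2 h2 hq ?_, fun h => ?_,
    (hasNormalPComplement_iff hp).2 h4, fun L hL => ?_, ?_, ?_⟩
  · rwa [piCoreOf_top_compl hp, relIndex_top_right]
  · refine (hasNormalPComplement_iff_abs hp).2
      (hall_piCoreOf_of_min hp hp2 (by rwa [card_top]) h3 h2 ?_)
    rwa [card_top]
  · rw [← map_le_map_inj (commutator G).subtype_injective, map_subtype_pPrimeCore hp]
    exact h4.le_of_normal (self_le_norm_piCoreOf _ _) (map_subtype_le _)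
      (((isPiSubgroup_single_compl_iff_coprime hp).2 hL).map _)
  · rw [pPrimePCore_eq hp]; exact h1
  · rw [pPrimePCore_eq hp, ← relIndex_top_right]
    exact ((Nat.Prime.coprime_iff_not_dvd hp).2 h3).symm

end Cfsg.Agent.PG
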